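import Cfsg.Agent.H377.ToOmega
import Cfsg.Agent.TitsThree.KSideO

/-!
# S4884, block G: isometries of order `q` in the orthogonal groups (helper394)

* `mem_E_of_odd`     : isometries of odd order lie in `E Q`;
* `exists_isom_of_dvd` : (A) an isometry of order `q` if `q ∣ |PΩ(Q)|`;
* `exists_blk_odd`, `exists_blk_minus` : (B) an isometry of order `q` with `dim [V, x] ≤ 2k` if `q ∣ |F| ^ k + 1`;
* `exists_two_odd`, `exists_two_minus` : (C) two of them with orthogonal `[V, x]` of dimension `2` if `q ∣ |F| + 1`;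
* `qElt_of_isom`     : (D) the transfer to `QElt`.
-/

set_option autoImplicit false
set_option linter.unusedSectionVars false
set_option linter.style.haveILetI false

namespace Cfsg.Agent.H394.CC

open QuadraticMap Cfsg Module
open Cfsg.Agent.LieClassical.OrthCore Cfsg.Agent.LieClassical.OrthForms Cfsg.Agent.LieClassical.OrthFinite
open Cfsg.Agent.LieClassical.OrthSimple Cfsg.Agent.LieClassical.OrthTrans
open Cfsg.Agent.H377 Cfsg.Agent.H403.Classify

/-! ### Elements of `E Q` -/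

section

variable {F : Type*} [Field F] [Finite F] {ι : Type} [Fintype ι] [DecidableEq ι] {Q : QuadraticForm F (ι → F)}

/-- isometries of odd order lie in `E Q` -/
theorem mem_E_of_odd (hQ : Nondeg Q) (h5 : 5 ≤ Fintype.card ι) {g : (ι → F) ≃ₗ[F] (ι → F)} (hg : ∀ v, Q (g v) = Q v)
    {k : ℕ} (hk : Odd k) (h1 : g ^ k = 1) : g ∈ E Q := by
  have hG : Good Q := good_of_finite hQ (by rwa [Module.finrank_fintype_fun_eq_card])
  obtain ⟨g', rfl⟩ : g ∈ (isometryHom Q).range := by rw [isometryHom_range]; exact hg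
  have h2 : g' ^ k = 1 := isometryHom_injective Q (by rw [map_pow, h1, map_one])
  obtain ⟨j, hj⟩ := hk
  have h3 : g' = g' ^ (j + 1) * g' ^ (j + 1) := by
    rw [← pow_add, show j + 1 + (j + 1) = k + 1 by omega, pow_succ, h2, one_mul]
  rw [← hG.commutator_eq_E, ← map_Omega]
  refine Subgroup.mem_map_of_mem _ ?_
  rw [h3]
  exact mul_self_mem_Omega Q hQ h5 _

theorem finite_equiv {V : Type*} [AddCommGroup V] [Module F V] [Finite V] : Finite (V ≃ₗ[F] V) :=
  Finite.of_injective (fun g v => g v) fun _ _ h => LinearEquiv.ext fun v => congrFun h v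

/-- **(A)** -/
theorem exists_isom_of_dvd (hG : Good Q) {q : ℕ} [hq : Fact q.Prime] (h : q ∣ Nat.card (POmega F ⇑Q)) :
    ∃ x : (ι → F) ≃ₗ[F] (ι → F), (∀ v, Q (x v) = Q v) ∧ x ^ q = 1 ∧ x ≠ 1 := by
  haveI := finite_equiv (F := F) (V := ι → F)
  have h1 : q ∣ Nat.card (E Q) := h.trans (Subgroup.card_dvd_of_surjective
    (Cfsg.Agent.TitsThree.KSideO.toPOmega hG) (Cfsg.Agent.TitsThree.KSideO.toPOmega_surjective hG))
  obtain ⟨x, hx⟩ := exists_prime_orderOf_dvd_card' q h1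
  refine ⟨x.1, E_le_O x.2, ?_, ?_⟩
  · have h2 := pow_orderOf_eq_one x
    rw [hx] at h2
    exact congrArg Subtype.val h2
  · intro h2
    have : x = 1 := Subtype.ext h2
    rw [this, orderOf_one] at hx
    exact hq.out.one_lt.ne hx

end

/-! ### The order of `|F|` -/

section

variable {F : Type*} [Field F] [Finite F] {V : Type*} [AddCommGroup V] [Module F V] [Finite V]

/-- an element of order `q` of `GL(V)`: `q ∣ |F| ^ j - 1` for some `1 ≤ j ≤ dim V` -/
theorem exists_pow_of_order {q : ℕ} (hq : q.Prime) (hqF : ¬ q ∣ Nat.card F) {x : V ≃ₗ[F] V} (hx : x ^ q = 1)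
    (hx1 : x ≠ 1) : ∃ j, 1 ≤ j ∧ j ≤ finrank F V ∧ q ∣ Nat.card F ^ j - 1 := by
  classical
  haveI : Fact q.Prime := ⟨hq⟩
  haveI := finite_equiv (F := F) (V := V)
  letI := Fintype.ofFinite F
  haveI : FiniteDimensional F V := Module.Finite.of_finite
  set n := finrank F V with hn
  let b := Module.finBasisOfFinrankEq F V hn.symm
  have h1 : orderOf x = q := orderOf_eq_prime hx hx1
  have h2 : q ∣ Nat.card (V ≃ₗ[F] V) := h1 ▸ orderOf_dvd_natCard x
  have h3 : Nat.card (V ≃ₗ[F] V) = Nat.card (Matrix.GeneralLinearGroup (Fin n) F) := by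
    refine Nat.card_congr ((LinearMap.GeneralLinearGroup.generalLinearEquiv F V).symm.trans ?_).toEquiv
    exact Units.mapEquiv (LinearMap.toMatrixAlgEquiv b).toMulEquiv
  rw [h3, Matrix.card_GL_field, ← Nat.card_eq_fintype_card] at h2
  obtain ⟨i, -, hi⟩ := (Prime.dvd_finsetProd_iff hq.prime _).1 h2
  have h4 : Nat.card F ^ n - Nat.card F ^ (i : ℕ) = Nat.card F ^ (i : ℕ) * (Nat.card F ^ (n - i) - 1) := by
    rw [Nat.mul_sub, mul_one, ← pow_add, Nat.add_sub_cancel' i.2.le]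
  rw [h4] at hi
  refine ⟨n - i, by omega, by omega, ?_⟩
  exact ((hq.dvd_mul).1 hi).resolve_left fun h => hqF (hq.dvd_of_dvd_pow h)

end

/-! ### Blocks -/

section

variable {F : Type*} [Field F] [Finite F]

/-- an isometry of order `q` with `dim [V, g] ≤ k` -/
def BlkE {V : Type*} [AddCommGroup V] [Module F V] (Q : QuadraticForm F V) (q k : ℕ) (g : Module.End F V) : Prop :=
  (∀ v, Q (g v) = Q v) ∧ g ^ q = 1 ∧ g ≠ 1 ∧ finrank F (LinearMap.range (g - 1)) ≤ k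

variable {V V₁ V₂ : Type*} [AddCommGroup V] [Module F V] [AddCommGroup V₁] [Module F V₁] [AddCommGroup V₂] [Module F V₂]

theorem BlkE.prod_left [Module.Finite F V₁] {Q₁ : QuadraticForm F V₁} {q k : ℕ} {g : Module.End F V₁}
    (h : BlkE Q₁ q k g) (Q₂ : QuadraticForm F V₂) :
    BlkE (sumQ Q₁ Q₂) q k (g.prodMap (1 : Module.End F V₂)) := by
  obtain ⟨h1, h2, h3, h4⟩ := h
  refine ⟨fun v => ?_, ?_, ?_, ?_⟩
  · rw [sumQ_apply, sumQ_apply, LinearMap.prodMap_apply, h1]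
    rfl
  · rw [prodMap_pow', h2, one_pow]
    rfl
  · rw [Ne, prodMap_eq_one_iff]
    exact fun h => h3 h.1
  · have h5 : LinearMap.range (g.prodMap (1 : Module.End F V₂) - 1) ≤
        (LinearMap.range (g - 1)).map (LinearMap.inl F V₁ V₂) := by
      rintro _ ⟨v, rfl⟩
      refine ⟨(g - 1) v.1, ⟨v.1, rfl⟩, ?_⟩
      refine Prod.ext ?_ ?_
      · rfl
      · change (0 : V₂) = v.2 - v.2
        rw [sub_self]
    exact (Submodule.finrank_mono h5).trans ((Submodule.finrank_map_le _ _).trans h4)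

theorem BlkE.prod_right [Module.Finite F V₂] {Q₂ : QuadraticForm F V₂} {q k : ℕ} {g : Module.End F V₂}
    (h : BlkE Q₂ q k g) (Q₁ : QuadraticForm F V₁) :
    BlkE (sumQ Q₁ Q₂) q k ((1 : Module.End F V₁).prodMap g) := by
  obtain ⟨h1, h2, h3, h4⟩ := h
  refine ⟨fun v => ?_, ?_, ?_, ?_⟩
  · rw [sumQ_apply, sumQ_apply, LinearMap.prodMap_apply, h1]
    rfl
  · rw [prodMap_pow', h2, one_pow]
    rfl
  · rw [Ne, prodMap_eq_one_iff]
    exact fun h => h3 h.2
  · have h5 : LinearMap.range ((1 : Module.End F V₁).prodMap g - 1) ≤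
        (LinearMap.range (g - 1)).map (LinearMap.inr F V₁ V₂) := by
      rintro _ ⟨v, rfl⟩
      refine ⟨(g - 1) v.2, ⟨v.2, rfl⟩, ?_⟩
      refine Prod.ext ?_ ?_
      · change (0 : V₁) = v.1 - v.1
        rw [sub_self]
      · rfl
    exact (Submodule.finrank_mono h5).trans ((Submodule.finrank_map_le _ _).trans h4)

theorem conj_pow (e : V₁ ≃ₗ[F] V) (g : Module.End F V₁) (k : ℕ) : (e.conj g) ^ k = e.conj (g ^ k) := by
  change (LinearEquiv.conjRingEquiv e g) ^ k = LinearEquiv.conjRingEquiv e (g ^ k)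
  rw [map_pow]

theorem BlkE.conj [Module.Finite F V₁] {Q₁ : QuadraticForm F V₁} {Q : QuadraticForm F V} {q k : ℕ}
    {g : Module.End F V₁} (h : BlkE Q₁ q k g) (e : V ≃ₗ[F] V₁) {c : F} (hc : c ≠ 0) (he : ∀ v, Q₁ (e v) = c * Q v) :
    BlkE Q q k (e.symm.conj g) := by
  obtain ⟨h1, h2, h3, h4⟩ := h
  have h0 : ∀ v, e.symm.conj g v = e.symm (g (e v)) := fun v => rfl
  refine ⟨fun v => ?_, ?_, ?_, ?_⟩
  · apply mul_left_cancel₀ hc
    rw [← he, ← he, h0, e.apply_symm_apply, h1]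
  · rw [conj_pow, h2]
    exact map_one (LinearEquiv.conjRingEquiv e.symm)
  · intro h
    exact h3 ((LinearEquiv.conjRingEquiv e.symm).injective
      (h.trans (map_one (LinearEquiv.conjRingEquiv e.symm)).symm))
  · have h5 : LinearMap.range (e.symm.conj g - 1) ≤ (LinearMap.range (g - 1)).map (e.symm : V₁ →ₗ[F] V) := by
      rintro _ ⟨v, rfl⟩
      refine ⟨(g - 1) (e v), ⟨e v, rfl⟩, ?_⟩
      change e.symm (g (e v) - e v) = e.symm (g (e v)) - v
      rw [map_sub, e.symm_apply_apply]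
    exact (Submodule.finrank_mono h5).trans ((Submodule.finrank_map_le _ _).trans h4)

/-- the block of `Elt` -/
theorem exists_blk_of_elt {n q : ℕ} {ε : ℤ} (hq : q.Prime) (h : Elt F n ε q) :
    ∃ (Q : QuadraticForm F (Fin (2 * n) → F)) (g : Module.End F (Fin (2 * n) → F)),
      Nondeg Q ∧ HasSign (⇑Q) n ε ∧ BlkE Q q (2 * n) g := by
  obtain ⟨-, Q, g, hQ, hs, hg, ho⟩ := h
  refine ⟨Q, g, hQ, hs, hg, ?_, ?_, ?_⟩
  · rw [← ho]
    exact pow_orderOf_eq_one g
  · rintro rfl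
    rw [orderOf_one] at ho
    exact hq.one_lt.ne ho
  · refine (Submodule.finrank_le _).trans ?_
    rw [Module.finrank_fin_fun]

/-- as an equivalence -/
theorem exists_equiv {g : Module.End F V} {q : ℕ} (hq : 0 < q) (h : g ^ q = 1) :
    ∃ x : V ≃ₗ[F] V, (x : V →ₗ[F] V) = g := by
  obtain ⟨k, rfl⟩ : ∃ k, q = k + 1 := ⟨q - 1, by omega⟩
  refine ⟨LinearEquiv.ofLinearMap g (g ^ k) ?_ ?_, ?_⟩
  · change g * g ^ k = 1
    rw [← pow_succ', h]
  · change g ^ k * g = 1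
    rw [← pow_succ, h]
  · ext v
    rfl

/-- an isometry of order `q` with `dim [V, x] ≤ k` -/
def Blk (Q : QuadraticForm F V) (q k : ℕ) (x : V ≃ₗ[F] V) : Prop :=
  (∀ v, Q (x v) = Q v) ∧ x ^ q = 1 ∧ x ≠ 1 ∧ finrank F (LinearMap.range ((x : V →ₗ[F] V) - LinearMap.id)) ≤ k

theorem coe_pow (x : V ≃ₗ[F] V) (n : ℕ) : ((x ^ n : V ≃ₗ[F] V) : V →ₗ[F] V) = ((x : V →ₗ[F] V) : Module.End F V) ^ n := by
  induction n with
  | zero => rfl
  | succ n ih => rw [pow_succ, pow_succ, ← ih]; rfl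

theorem Blk.of {Q : QuadraticForm F V} {q k : ℕ} {x : V ≃ₗ[F] V} (h : BlkE Q q k (x : V →ₗ[F] V)) : Blk Q q k x := by
  obtain ⟨h1, h2, h3, h4⟩ := h
  refine ⟨h1, ?_, ?_, h4⟩
  · apply LinearEquiv.toLinearMap_injective
    rw [coe_pow, h2]
    rfl
  · rintro rfl
    exact h3 rfl

theorem Blk.exists_of {Q : QuadraticForm F V} {q k : ℕ} (hq : 0 < q) {g : Module.End F V} (h : BlkE Q q k g) :
    ∃ x : V ≃ₗ[F] V, (x : V →ₗ[F] V) = g ∧ Blk Q q k x := by
  obtain ⟨x, rfl⟩ := exists_equiv hq h.2.1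
  exact ⟨x, rfl, Blk.of h⟩

/-- two commuting blocks with orthogonal commutators -/
def Two (Q : QuadraticForm F V) (q k : ℕ) (x y : V ≃ₗ[F] V) : Prop :=
  Blk Q q k x ∧ Blk Q q k y ∧ x * y = y * x ∧ (∀ v, x (y v - v) = y v - v) ∧ ∀ v, y (x v - v) = x v - v

theorem Two.exists_of {V₁ V₂ V₃ : Type*} [AddCommGroup V₁] [Module F V₁] [AddCommGroup V₂] [Module F V₂]
    [AddCommGroup V₃] [Module F V₃] [Module.Finite F V₁] [Module.Finite F V₂] [Module.Finite F V₃]
    {Q : QuadraticForm F V} {Q₁ : QuadraticForm F V₁}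
    {Q₂ : QuadraticForm F V₂} {Q₃ : QuadraticForm F V₃} {q k : ℕ} (hq : 0 < q) {g₁ : Module.End F V₁}
    {g₂ : Module.End F V₂} (h₁ : BlkE Q₁ q k g₁) (h₂ : BlkE Q₂ q k g₂) (e : V ≃ₗ[F] (V₁ × V₂) × V₃) {c : F} (hc : c ≠ 0)
    (he : ∀ v, sumQ (sumQ Q₁ Q₂) Q₃ (e v) = c * Q v) : ∃ x y : V ≃ₗ[F] V, Two Q q k x y := by
  obtain ⟨x, hx, hbx⟩ := Blk.exists_of hq (((h₁.prod_left Q₂).prod_left Q₃).conj e hc he)
  obtain ⟨y, hy, hby⟩ := Blk.exists_of hq (((h₂.prod_right Q₁).prod_left Q₃).conj e hc he)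
  have hx' : ∀ v, x v = e.symm ((g₁ (e v).1.1, (e v).1.2), (e v).2) := fun v => by
    have := LinearMap.congr_fun hx v
    exact this
  have hy' : ∀ v, y v = e.symm (((e v).1.1, g₂ (e v).1.2), (e v).2) := fun v => by
    have := LinearMap.congr_fun hy v
    exact this
  refine ⟨x, y, hbx, hby, LinearEquiv.ext fun v => ?_, fun v => ?_, fun v => ?_⟩
  · change x (y v) = y (x v)
    rw [hx', hy', hx', hy' (e.symm _)]
    simp only [e.apply_symm_apply]
  · apply e.injective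
    rw [hx', hy', e.apply_symm_apply, map_sub, e.apply_symm_apply]
    refine Prod.ext (Prod.ext ?_ ?_) ?_ <;> simp
  · apply e.injective
    rw [hy', hx', e.apply_symm_apply, map_sub, e.apply_symm_apply]
    refine Prod.ext (Prod.ext ?_ ?_) ?_ <;> simp

end

/-! ### The standard forms -/

section

variable {F : Type*} [Field F] [Finite F]

/-- **(B) minus type** -/
theorem exists_blk_minus {m k q : ℕ} (hk : 1 ≤ k) (hkm : k ≤ m + 1) (hq : q.Prime) (h : q ∣ Nat.card F ^ k + 1) {a b : F}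
    (hab : ∀ z₁ z₂ : F, z₁ ^ 2 + a * z₁ * z₂ + b * z₂ ^ 2 = 0 → z₁ = 0 ∧ z₂ = 0) :
    ∃ x, Blk (minusForm m F a b) q (2 * k) x := by
  obtain ⟨Q₁, g, hQ₁, hs, hb⟩ := exists_blk_of_elt hq (elt_tor_minus (F := F) hk h)
  have hs' := hs.prod (hasSign_plusForm (F := F) (m + 1 - k))
  rw [mul_one, show k + (m + 1 - k) = m + 1 by omega] at hs'
  obtain ⟨e, he⟩ := exists_minus (m := m + 1) (by omega)
    (V := (Fin (2 * k) → F) × (Fin (m + 1 - k) ⊕ Fin (m + 1 - k) → F)) (by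
      rw [Module.finrank_prod, Module.finrank_fin_fun, finrank_sumFun]; omega)
    (sumQ Q₁ (plusForm (m + 1 - k) F)) (sumQ_nondeg hQ₁ (nondeg_plusForm _ F)) hs' hab
  obtain ⟨x, -, hx⟩ := Blk.exists_of hq.pos ((hb.prod_left (plusForm (m + 1 - k) F)).conj (Q := minusForm m F a b) e
    one_ne_zero fun v => by rw [one_mul, coe_minusForm]; exact he v)
  exact ⟨x, hx⟩

/-- **(B) odd dimension** -/
theorem exists_blk_odd (h2 : (2 : F) ≠ 0) {m k q : ℕ} (hk : 1 ≤ k) (hkm : k ≤ m) (hq : q.Prime)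
    (h : q ∣ Nat.card F ^ k + 1) : ∃ x, Blk (oddForm m F) q (2 * k) x := by
  obtain ⟨Q₁, g, hQ₁, -, hb⟩ := exists_blk_of_elt hq (elt_tor_minus (F := F) hk h)
  obtain ⟨c, e, hc, he⟩ := exists_similar_odd (m := m)
    (V := (Fin (2 * k) → F) × (Unit ⊕ (Fin (m - k) ⊕ Fin (m - k)) → F)) (by
      rw [Module.finrank_prod, Module.finrank_fin_fun, Module.finrank_fintype_fun_eq_card]
      simp only [Fintype.card_sum, Fintype.card_fin, Fintype.card_unit]
      omega)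
    (sumQ Q₁ (oddForm (m - k) F)) (sumQ_nondeg hQ₁ (nondeg_oddForm (m - k) F h2))
  obtain ⟨x, -, hx⟩ := Blk.exists_of hq.pos ((hb.prod_left (oddForm (m - k) F)).conj (Q := oddForm m F) e hc he)
  exact ⟨x, hx⟩

/-- **(C) minus type** -/
theorem exists_two_minus {m q : ℕ} (hm : 2 ≤ m) (hq : q.Prime) (h : q ∣ Nat.card F + 1) {a b : F}
    (hab : ∀ z₁ z₂ : F, z₁ ^ 2 + a * z₁ * z₂ + b * z₂ ^ 2 = 0 → z₁ = 0 ∧ z₂ = 0) :
    ∃ x y, Two (minusForm m F a b) q 2 x y := by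
  obtain ⟨Q₁, g, hQ₁, hs, hb⟩ := exists_blk_of_elt hq (elt_ell (F := F) h)
  have hs' := (hs.prod hs).prod (hasSign_minusForm (F := F) (m - 2) hab)
  rw [show (-1 : ℤ) * -1 * -1 = -1 by norm_num, show 1 + 1 + (m - 2 + 1) = m + 1 by omega] at hs'
  obtain ⟨e, he⟩ := exists_minus (m := m + 1) (by omega)
    (V := ((Fin (2 * 1) → F) × (Fin (2 * 1) → F)) × ((Fin (m - 2) ⊕ Fin (m - 2)) ⊕ Fin 2 → F)) (by
      rw [Module.finrank_prod, Module.finrank_prod, Module.finrank_fin_fun, Module.finrank_fintype_fun_eq_card]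
      simp only [Fintype.card_sum, Fintype.card_fin]
      omega)
    (sumQ (sumQ Q₁ Q₁) (minusForm (m - 2) F a b))
    (sumQ_nondeg (sumQ_nondeg hQ₁ hQ₁) (nondeg_minusForm (m - 2) F a b hab)) hs' hab
  exact Two.exists_of (Q := minusForm m F a b) hq.pos hb hb e one_ne_zero
    fun v => by rw [one_mul, coe_minusForm]; exact he v

/-- **(C) odd dimension** -/
theorem exists_two_odd (h2 : (2 : F) ≠ 0) {m q : ℕ} (hm : 2 ≤ m) (hq : q.Prime) (h : q ∣ Nat.card F + 1) :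
    ∃ x y, Two (oddForm m F) q 2 x y := by
  obtain ⟨Q₁, g, hQ₁, -, hb⟩ := exists_blk_of_elt hq (elt_ell (F := F) h)
  obtain ⟨c, e, hc, he⟩ := exists_similar_odd (m := m)
    (V := ((Fin (2 * 1) → F) × (Fin (2 * 1) → F)) × (Unit ⊕ (Fin (m - 2) ⊕ Fin (m - 2)) → F)) (by
      rw [Module.finrank_prod, Module.finrank_prod, Module.finrank_fin_fun, Module.finrank_fintype_fun_eq_card]
      simp only [Fintype.card_sum, Fintype.card_fin, Fintype.card_unit]
      omega)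
    (sumQ (sumQ Q₁ Q₁) (oddForm (m - 2) F))
    (sumQ_nondeg (sumQ_nondeg hQ₁ hQ₁) (nondeg_oddForm (m - 2) F h2))
  exact Two.exists_of (Q := oddForm m F) hq.pos hb hb e hc he

end

end Cfsg.Agent.H394.CC
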