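import Cfsg.Agent.H394.CC.QE
import Cfsg.Agent.H21.PG.Types

/-!
# S4884, block G: the orthogonal groups, even order of `|F|` modulo `q` (helper394)

`qe_even` : `d = orderOf (|F| : ZMod q)` even, an isometry `x` of order `q` with `dim [V, x] ≤ d` (two of them if `d = 2`):
no stable totally isotropic subspace of dimension `m`, `2 m + 2 ≥ dim V`.
-/

set_option autoImplicit false
set_option linter.unusedSectionVars false
set_option linter.style.haveILetI false

namespace Cfsg.Agent.H394.CC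

open QuadraticMap Cfsg Module Submodule
open Cfsg.Agent.LieClassical.OrthCore Cfsg.Agent.LieClassical.OrthForms Cfsg.Agent.LieClassical.OrthFinite
open Cfsg.Agent.LieClassical.OrthSimple Cfsg.Agent.LieClassical.OrthTrans
open Cfsg.Agent.H377 Cfsg.Agent.H403.Classify Cfsg.Agent.H439.CC Cfsg.Agent.H21
open Cfsg.Agent.TitsThree Cfsg.Agent.TitsThree.KSideO

/-- the top of a flag -/
theorem pf_top {F : Type*} [Field F] {V : Type*} [AddCommGroup V] [Module F V] {Adm : Submodule F V → Prop}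
    {X : Set (V ≃ₗ[F] V)} : ∀ (ds : List ℕ) (A : Submodule F V), PF Adm X ds A → Adm A →
    (∀ x ∈ X, A.map (x : V →ₗ[F] V) = A) →
    ∃ W : Submodule F V, Adm W ∧ (∀ x ∈ X, W.map (x : V →ₗ[F] V) = W) ∧ finrank F W = finrank F A + ds.sum
  | [], A, _, hA, hs => ⟨A, hA, hs, by simp⟩
  | k :: ds, A, ⟨B, _, h2, h3, h4, _, h6⟩, _, _ => by
    obtain ⟨W, hW1, hW2, hW3⟩ := pf_top ds B h6 h2 h3
    exact ⟨W, hW1, hW2, by rw [hW3, h4, List.sum_cons, add_assoc]⟩

section

variable {F : Type*} [Field F] [Finite F] {V : Type*} [AddCommGroup V] [Module F V] [FiniteDimensional F V]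
  {Q : QuadraticForm F V}

/-- a t.i. subspace orthogonal to `R` and meeting it trivially -/
theorem bound (hQ : Nondeg Q) {W R : Submodule F V} (hW : PG.TI (HO Q) W) (hR : ∀ w ∈ W, ∀ r ∈ R, polar Q w r = 0)
    (hd : ∀ v ∈ W, v ∈ R → v = 0) : 2 * finrank F W + finrank F R ≤ finrank F V := by
  have h1 := LinearMap.BilinForm.finrank_orthogonal (nondegenerate_of_nondeg hQ) W
  have h2 : W ⊔ R ≤ LinearMap.BilinForm.orthogonal (polarBilin Q) W := by
    refine sup_le (fun v hv w hw => hW w hw v hv) fun r hr w hw => hR w hw r hr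
  have h3 := Submodule.finrank_mono h2
  have h4 := Submodule.finrank_sup_add_finrank_inf_eq W R
  have h5 : W ⊓ R = ⊥ := by
    rw [eq_bot_iff]
    exact fun v hv => hd v hv.1 hv.2
  rw [h5, finrank_bot, add_zero] at h4
  have h6 : finrank F W ≤ finrank F V := Submodule.finrank_le W
  rw [h1] at h3
  omega

variable {q : ℕ} [hqp : Fact q.Prime] {x y : V ≃ₗ[F] V}

theorem orth_Rg (hx : ∀ v, Q (x v) = Q v) {a b : V} (ha : a ∈ PG.Cg x) (hb : b ∈ PG.Rg x) : polar Q a b = 0 := by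
  obtain ⟨u, rfl⟩ := hb
  have h1 : polar Q (x a) (x u) = polar Q a u := by
    rw [polar, polar, ← map_add, hx, hx, hx]
  rw [PG.mem_Cg.1 ha] at h1
  change polar Q a (x u - u) = 0
  rw [sub_eq_add_neg, polar_add_right, polar_neg_right, h1]
  ring

/-- a stable t.i. subspace lies in `C_V(x)` -/
theorem le_Cg (hQ : Nondeg Q) (hq : (q : F) ≠ 0) (hx : ∀ v, Q (x v) = Q v) (hxq : x ^ q = 1) (hx1 : x ≠ 1)
    (hd : finrank F (PG.Rg x) ≤ orderOf ((Nat.card F : ℕ) : ZMod q)) {W : Submodule F V} (hW : PG.TI (HO Q) W)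
    (hs : PG.Sb x W) : W ≤ PG.Cg x := by
  have h0 : W ⊓ PG.Rg x = ⊥ := by
    by_contra hne
    have h1 := PG.dvd_inf hxq hq hs
    have h2 : 0 < finrank F (W ⊓ PG.Rg x : Submodule F V) := by
      rw [pos_iff_ne_zero, Ne, Submodule.finrank_eq_zero]
      exact hne
    have h3 := Nat.le_of_dvd h2 h1
    have h4 : W ⊓ PG.Rg x = PG.Rg x := Submodule.eq_of_le_of_finrank_le inf_le_right (hd.trans h3)
    have h5 : PG.Rg x ≤ W := by rw [← h4]; exact inf_le_left
    apply hx1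
    refine LinearEquiv.ext fun v => ?_
    have h6 : x v - v = 0 := by
      apply hQ
      intro w
      obtain ⟨a, ha, b, hb, rfl⟩ := PG.Sb.split (W := ⊤) hxq hq (fun _ _ => mem_top) (mem_top (x := w))
      rw [polar_add_right]
      have h7 : polar Q (x v - v) a = 0 := hW _ (h5 (PG.sub_mem_Rg x v)) _ (h5 ha.2)
      rw [h7, polar_comm, orth_Rg hx hb.2 (PG.sub_mem_Rg x v), add_zero]
    exact sub_eq_zero.1 h6
  intro v hv
  obtain ⟨a, ha, b, hb, rfl⟩ := hs.split hxq hq hv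
  rw [h0, mem_bot] at ha
  rw [ha, zero_add]
  exact hb.2

/-- **the kill for even `d`** -/
theorem qe_even (hQ : Nondeg Q) (hq : (q : F) ≠ 0) {m : ℕ} (hV : finrank F V ≤ 2 * m + 2)
    (hx : ∀ v, Q (x v) = Q v) (hxq : x ^ q = 1) (hx1 : x ≠ 1)
    (hdx : finrank F (PG.Rg x) ≤ orderOf ((Nat.card F : ℕ) : ZMod q))
    (h2 : 2 < orderOf ((Nat.card F : ℕ) : ZMod q) ∨ (orderOf ((Nat.card F : ℕ) : ZMod q) = 2 ∧
      ∃ y : V ≃ₗ[F] V, (∀ v, Q (y v) = Q v) ∧ y ^ q = 1 ∧ y ≠ 1 ∧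
        finrank F (PG.Rg y) ≤ orderOf ((Nat.card F : ℕ) : ZMod q) ∧ x * y = y * x ∧
        PG.Rg x ≤ PG.Cg y ∧ PG.Rg y ≤ PG.Cg x)) : PG.QE (HO Q) q m := by
  have hle : ∀ z : V ≃ₗ[F] V, z ^ q = 1 → z ≠ 1 → orderOf ((Nat.card F : ℕ) : ZMod q) ≤ finrank F (PG.Rg z) := by
    intro z hz hz1
    have h1 := PG.dvd_finrank hz (PG.Sb.Rg (x := z)) fun v hv hv' => PG.disj hz hq hv (PG.mem_Cg.2 hv')
    refine Nat.le_of_dvd ?_ h1
    rw [pos_iff_ne_zero, Ne, Submodule.finrank_eq_zero]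
    intro h
    apply hz1
    refine LinearEquiv.ext fun v => ?_
    have h3 := PG.sub_mem_Rg z v
    rw [h, mem_bot] at h3
    exact sub_eq_zero.1 h3
  have hti0 : PG.TI (HO Q) ⊥ := by
    intro v hv w _
    rw [(mem_bot F).1 hv]
    exact (HO Q).zero_left w
  rcases h2 with h2 | ⟨h2, y, hy, hyq, hy1, hdy, hxy, h12, h21⟩
  · refine ⟨x, 1, fun v w => ?_, fun v w => rfl, hxq, one_pow q, (mul_one x).trans (one_mul x).symm, fun hPF => ?_⟩
    · rw [HO_h, HO_h, polar, polar, ← map_add, hx, hx, hx]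
    obtain ⟨W, hW, hs, hf⟩ := pf_top _ _ hPF hti0 (fun _ _ => Submodule.map_bot _)
    rw [finrank_bot, zero_add, show (dig m).sum = m from Nat.sum_map_two_pow_bitIndices m] at hf
    have hsx : PG.Sb x W := fun v hv => by
      rw [← hs x (Set.mem_insert _ _)]
      exact mem_map_of_mem hv
    have hC := le_Cg hQ hq hx hxq hx1 hdx hW hsx
    have h3 := bound hQ hW (R := PG.Rg x) (fun w hw r hr => orth_Rg hx (hC hw) hr)
      fun v hv hv' => PG.disj hxq hq hv' (hC hv)
    have h4 := hle x hxq hx1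
    omega
  · refine ⟨x, y, fun v w => ?_, fun v w => ?_, hxq, hyq, hxy, fun hPF => ?_⟩
    · rw [HO_h, HO_h, polar, polar, ← map_add, hx, hx, hx]
    · rw [HO_h, HO_h, polar, polar, ← map_add, hy, hy, hy]
    obtain ⟨W, hW, hs, hf⟩ := pf_top _ _ hPF hti0 (fun _ _ => Submodule.map_bot _)
    rw [finrank_bot, zero_add, show (dig m).sum = m from Nat.sum_map_two_pow_bitIndices m] at hf
    have hsx : PG.Sb x W := fun v hv => by
      rw [← hs x (Set.mem_insert _ _)]
      exact mem_map_of_mem hv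
    have hsy : PG.Sb y W := fun v hv => by
      rw [← hs y (Set.mem_insert_of_mem _ rfl)]
      exact mem_map_of_mem hv
    have hCx := le_Cg hQ hq hx hxq hx1 hdx hW hsx
    have hCy := le_Cg hQ hq hy hyq hy1 hdy hW hsy
    have h3 := bound hQ hW (R := PG.Rg x ⊔ PG.Rg y) (fun w hw r hr => by
        obtain ⟨a, ha, b, hb, rfl⟩ := mem_sup.1 hr
        rw [polar_add_right, orth_Rg hx (hCx hw) ha, orth_Rg hy (hCy hw) hb, add_zero])
      fun v hv hv' => by
        obtain ⟨a, ha, b, hb, rfl⟩ := mem_sup.1 hv'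
        have e1 : a ∈ PG.Cg x := by
          have := sub_mem (hCx hv) (h21 hb)
          rwa [add_sub_cancel_right] at this
        have e2 : b ∈ PG.Cg y := by
          have := sub_mem (hCy hv) (h12 ha)
          rwa [add_sub_cancel_left] at this
        rw [PG.disj hxq hq ha e1, PG.disj hyq hq hb e2, add_zero]
    have h4 := Submodule.finrank_sup_add_finrank_inf_eq (PG.Rg x) (PG.Rg y)
    have h5 : PG.Rg x ⊓ PG.Rg y = ⊥ := by
      rw [eq_bot_iff]
      exact fun v hv => PG.disj hxq hq hv.1 (h21 hv.2)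
    rw [h5, finrank_bot, add_zero] at h4
    have h6 := hle x hxq hx1
    have h7 := hle y hyq hy1
    omega

end

end Cfsg.Agent.H394.CC
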