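import Cfsg.Agent.H394.CC.Even

/-!
# S4884, block G: `QElt` for `PΩ_{2m+1}` and `PΩ⁻_{2m+2}` (helper394)

For even `d = orderOf (|F| : ZMod q)` without the cases of `H21.PG`; for odd `d` from `CaseH`, `CaseS`.
-/

set_option autoImplicit false
set_option linter.unusedSectionVars false
set_option linter.style.haveILetI false

namespace Cfsg.Agent.H394.CC

open QuadraticMap Cfsg Module Submodule
open Cfsg.Agent.LieClassical.OrthCore Cfsg.Agent.LieClassical.OrthForms Cfsg.Agent.LieClassical.OrthFinite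
open Cfsg.Agent.LieClassical.OrthSimple Cfsg.Agent.LieClassical.OrthTrans
open Cfsg.Agent.H377 Cfsg.Agent.H403.Classify Cfsg.Agent.H439.CC Cfsg.Agent.H21
open Cfsg.Agent.TitsThree Cfsg.Agent.TitsThree.KSideO Cfsg.Agent.TitsThree.WittFrame
  Cfsg.Agent.TitsThree.WBridge Cfsg.Agent.TitsThree.FrameCN Cfsg.Agent.TitsThree.SiegelGen Cfsg.Agent.TitsThree.Siegel

universe u

section

variable {F : Type u} [Field F] [Finite F]

theorem natCast_ne_zero {q : ℕ} (hq : q.Prime) (hqF : ¬ q ∣ Nat.card F) : (q : F) ≠ 0 := by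
  intro h
  obtain ⟨p, hp⟩ := CharP.exists F
  have hpp : p.Prime := (CharP.char_is_prime_or_zero F p).resolve_right fun h0 => by
    subst h0
    haveI := CharP.charP_to_charZero F
    exact not_finite F
  have h1 : p ∣ q := (CharP.cast_eq_zero_iff F p q).1 h
  have h2 : p = q := (Nat.prime_dvd_prime_iff_eq hpp hq).1 h1
  subst h2
  letI := Fintype.ofFinite F
  obtain ⟨n, -, hn⟩ := FiniteField.card F p
  apply hqF
  rw [Nat.card_eq_fintype_card, hn]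
  exact dvd_pow_self p n.pos.ne'

variable {V : Type*} [AddCommGroup V] [Module F V] [FiniteDimensional F V] {Q : QuadraticForm F V}

theorem qe_of_blk {q : ℕ} [hqp : Fact q.Prime] (hQ : Nondeg Q) (hq : (q : F) ≠ 0) {m k : ℕ}
    (hV : finrank F V ≤ 2 * m + 2) (hd : orderOf ((Nat.card F : ℕ) : ZMod q) = 2 * k)
    (hk : 1 ≤ k) (h : 2 ≤ k → ∃ x, Blk Q q (2 * k) x) (h' : k = 1 → ∃ x y, Two Q q 2 x y) :
    PG.QE (HO Q) q m := by
  rcases Nat.lt_or_ge k 2 with h1 | h1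
  · have hk1 : k = 1 := by omega
    obtain ⟨x, y, hx, hy, hxy, h12, h21⟩ := h' hk1
    subst hk1
    refine qe_even hQ hq hV hx.1 hx.2.1 hx.2.2.1 ?_ (Or.inr ⟨by rw [hd], y, hy.1, hy.2.1, hy.2.2.1, ?_, hxy, ?_, ?_⟩)
    · rw [hd]
      exact hx.2.2.2
    · rw [hd]
      exact hy.2.2.2
    · rintro _ ⟨v, rfl⟩
      exact PG.mem_Cg.2 (h21 v)
    · rintro _ ⟨v, rfl⟩
      exact PG.mem_Cg.2 (h12 v)
  · obtain ⟨x, hx⟩ := h h1
    refine qe_even hQ hq hV hx.1 hx.2.1 hx.2.2.1 ?_ (Or.inl ?_)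
    · rw [hd]
      exact hx.2.2.2
    · omega

/-- odd `d` -/
theorem qe_odd_ord (hH : PG.CaseH.{u, u}) (hS : PG.CaseS.{u, u}) {V : Type u} [AddCommGroup V] [Module F V]
    [FiniteDimensional F V] {Q : QuadraticForm F V} {q m : ℕ} [hqp : Fact q.Prime] (hyp : PG.Hyp (HO Q) m)
    (h2 : (2 : F) ≠ 0) (hq : (q : F) ≠ 0) (hm : 2 ≤ m) (hV : finrank F V ≤ 2 * m + 2)
    (hodd : Odd (orderOf ((Nat.card F : ℕ) : ZMod q)))
    (hx : ∃ x : V ≃ₗ[F] V, (∀ v, Q (x v) = Q v) ∧ x ^ q = 1 ∧ x ≠ 1) : PG.QE (HO Q) q m := by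
  rcases Nat.lt_or_ge m (orderOf ((Nat.card F : ℕ) : ZMod q)) with h1 | h1
  · obtain ⟨x, hx1, hx2, hx3⟩ := hx
    refine hS F V (HO Q) q m hyp hq (by omega) (Or.inl hm) hV h1 ⟨x, fun v w => ?_, hx2, hx3⟩
    rw [HO_h, HO_h, polar, polar, ← map_add, hx1, hx1, hx1]
  · refine hH F V (HO Q) q m hyp h2 hq ?_
    by_cases h3 : orderOf ((Nat.card F : ℕ) : ZMod q) = 1
    · left
      omega
    · right
      refine ⟨?_, h1⟩
      rintro ⟨a, ha⟩
      rw [ha] at hodd h3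
      rcases Nat.eq_zero_or_pos a with rfl | h0
      · exact h3 (pow_zero 2)
      · exact (Nat.not_odd_iff_even.2 ((Nat.even_pow.2 ⟨even_two, h0.ne'⟩))) hodd

end

section

variable {F : Type u} [Field F] [Finite F]

/-- **the isometries, odd dimension** -/
theorem qe_oodd (hH : PG.CaseH.{u, u}) (hS : PG.CaseS.{u, u}) {m : ℕ} (hm : 2 ≤ m) (h2 : (2 : F) ≠ 0)
    (hyp : PG.Hyp (HO (oddForm m F)) m) {q : ℕ} [hqp : Fact q.Prime] (hqF : ¬ q ∣ Nat.card F)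
    (hS' : q ∣ Nat.card (POmega F ⇑(oddForm m F))) : PG.QE (HO (oddForm m F)) q m := by
  have hq := natCast_ne_zero hqp.out hqF
  have hQ := nondeg_oddForm m F h2
  have hfr : finrank F (Unit ⊕ (Fin m ⊕ Fin m) → F) = 2 * m + 1 := by
    rw [Module.finrank_fintype_fun_eq_card]
    simp only [Fintype.card_sum, Fintype.card_fin, Fintype.card_unit]
    omega
  have hG : Good (oddForm m F) := good_of_finite hQ (by omega)
  obtain ⟨x, hx, hxq, hx1⟩ := exists_isom_of_dvd hG hS'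
  rcases Nat.even_or_odd (orderOf ((Nat.card F : ℕ) : ZMod q)) with ⟨k, hk⟩ | ho
  · have hd : orderOf ((Nat.card F : ℕ) : ZMod q) = 2 * k := by omega
    have hk1 : 1 ≤ k := by
      have h0 : 0 < orderOf ((Nat.card F : ℕ) : ZMod q) := by
        rw [orderOf_pos_iff, isOfFinOrder_iff_isUnit, ZMod.isUnit_iff_coprime]
        exact ((Nat.Prime.coprime_iff_not_dvd hqp.out).2 hqF).symm
      omega
    refine qe_of_blk hQ hq (by omega) hd hk1 (fun _ => blk_odd h2 hqF hxq hx1 hk1 hd) fun h1 => ?_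
    subst h1
    exact exists_two_odd h2 hm hqp.out (by simpa using dvd_add_of_order Nat.card_pos le_rfl hd)
  · exact qe_odd_ord hH hS hyp h2 hq hm (by omega) ho ⟨x, hx, hxq, hx1⟩

/-- **the isometries, minus type** -/
theorem qe_ominus (hH : PG.CaseH.{u, u}) (hS : PG.CaseS.{u, u}) {m : ℕ} (hm : 2 ≤ m) (h2 : (2 : F) ≠ 0) {a b : F}
    (hab : ∀ z₁ z₂ : F, z₁ ^ 2 + a * z₁ * z₂ + b * z₂ ^ 2 = 0 → z₁ = 0 ∧ z₂ = 0)
    (hyp : PG.Hyp (HO (minusForm m F a b)) m) {q : ℕ} [hqp : Fact q.Prime] (hqF : ¬ q ∣ Nat.card F)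
    (hS' : q ∣ Nat.card (POmega F ⇑(minusForm m F a b))) : PG.QE (HO (minusForm m F a b)) q m := by
  have hq := natCast_ne_zero hqp.out hqF
  have hQ := nondeg_minusForm m F a b hab
  have hfr : finrank F ((Fin m ⊕ Fin m) ⊕ Fin 2 → F) = 2 * m + 2 := by
    rw [Module.finrank_fintype_fun_eq_card]
    simp only [Fintype.card_sum, Fintype.card_fin]
    omega
  have hG : Good (minusForm m F a b) := good_of_finite hQ (by omega)
  obtain ⟨x, hx, hxq, hx1⟩ := exists_isom_of_dvd hG hS'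
  rcases Nat.even_or_odd (orderOf ((Nat.card F : ℕ) : ZMod q)) with ⟨k, hk⟩ | ho
  · have hd : orderOf ((Nat.card F : ℕ) : ZMod q) = 2 * k := by omega
    have hk1 : 1 ≤ k := by
      have h0 : 0 < orderOf ((Nat.card F : ℕ) : ZMod q) := by
        rw [orderOf_pos_iff, isOfFinOrder_iff_isUnit, ZMod.isUnit_iff_coprime]
        exact ((Nat.Prime.coprime_iff_not_dvd hqp.out).2 hqF).symm
      omega
    refine qe_of_blk hQ hq (by omega) hd hk1 (fun _ => blk_minus hqF hxq hx1 hk1 hd hab) fun h1 => ?_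
    subst h1
    exact exists_two_minus hm hqp.out (by simpa using dvd_add_of_order Nat.card_pos le_rfl hd) hab
  · exact qe_odd_ord hH hS hyp h2 hq hm (by omega) ho ⟨x, hx, hxq, hx1⟩

variable {ι : Type} [Fintype ι] [DecidableEq ι] {Q : QuadraticForm F (ι → F)}

/-- from `QE` to `QElt` for `E Q` -/
theorem qElt_of_QE (hQ : Nondeg Q) (h5 : 5 ≤ Fintype.card ι) (h2 : (2 : F) ≠ 0) {q : ℕ} [hqp : Fact q.Prime]
    (hq2 : q ≠ 2) {m : ℕ} (h : PG.QE (HO Q) q m) : QElt (PG.TI (HO Q)) (E Q).subtype q m := by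
  obtain ⟨x₁, x₂, h1, h3, h4, h5', h6, h7⟩ := h
  have m1 := mem_E_of_odd hQ h5 (isom_of_polar h2 h1) (hqp.out.odd_of_ne_two hq2) h4
  have m2 := mem_E_of_odd hQ h5 (isom_of_polar h2 h3) (hqp.out.odd_of_ne_two hq2) h5'
  exact PG.qelt_of (E Q).subtype ⟨x₁, m1⟩ ⟨x₂, m2⟩ (Subtype.ext h4) (Subtype.ext h5') (Subtype.ext h6) h7

/-- **`QElt` for `PΩ_{2m+1}`** -/
theorem qElt_oodd_of (hH : PG.CaseH.{u, u}) (hS : PG.CaseS.{u, u}) {m : ℕ} (hm : 2 ≤ m) (h2 : (2 : F) ≠ 0)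
    (hyp : PG.Hyp (HO (oddForm m F)) m) (hG : Good (oddForm m F))
    (hp : ∃ p : (toFrame (wodd m F)).Adm, p.c ≠ 0) {q : ℕ} [hqp : Fact q.Prime] (hq2 : q ≠ 2) (hqF : ¬ q ∣ Nat.card F)
    (hS' : q ∣ Nat.card (POmega F ⇑(oddForm m F))) :
    QElt (fun U => ∀ u ∈ U, ∀ v ∈ U, (HO (oddForm m F)).h u v = 0) (KSideO.model (wodd m F) hG hp).I.subtype q m :=
  qElt_of_QE (nondeg_oddForm m F h2) (by simp only [Fintype.card_sum, Fintype.card_fin, Fintype.card_unit]; omega) h2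
    hq2 (qe_oodd hH hS hm h2 hyp hqF hS')

/-- **`QElt` for `PΩ⁻_{2m+2}`** -/
theorem qElt_ominus_of (hH : PG.CaseH.{u, u}) (hS : PG.CaseS.{u, u}) {m : ℕ} (hm : 2 ≤ m) (h2 : (2 : F) ≠ 0) {a b : F}
    (hab : ∀ z₁ z₂ : F, z₁ ^ 2 + a * z₁ * z₂ + b * z₂ ^ 2 = 0 → z₁ = 0 ∧ z₂ = 0)
    (hyp : PG.Hyp (HO (minusForm m F a b)) m) (hG : Good (minusForm m F a b))
    (hp : ∃ p : (toFrame (wminus m F a b hab)).Adm, p.c ≠ 0) {q : ℕ} [hqp : Fact q.Prime] (hq2 : q ≠ 2)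
    (hqF : ¬ q ∣ Nat.card F) (hS' : q ∣ Nat.card (POmega F ⇑(minusForm m F a b))) :
    QElt (fun U => ∀ u ∈ U, ∀ v ∈ U, (HO (minusForm m F a b)).h u v = 0)
      (KSideO.model (wminus m F a b hab) hG hp).I.subtype q m :=
  qElt_of_QE (nondeg_minusForm m F a b hab) (by simp only [Fintype.card_sum, Fintype.card_fin]; omega) h2
    hq2 (qe_ominus hH hS hm h2 hab hyp hqF hS')

end

end Cfsg.Agent.H394.CC
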