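import Cfsg.Agent.H394.CC.Elt
import Cfsg.Agent.H439.CC.Defs

/-!
# S4884, block G: the transfer to `QElt`, and the orders (helper394)
-/

set_option autoImplicit false
set_option linter.unusedSectionVars false
set_option linter.style.haveILetI false

namespace Cfsg.Agent.H394.CC

open QuadraticMap Cfsg Module
open Cfsg.Agent.LieClassical.OrthCore Cfsg.Agent.LieClassical.OrthForms Cfsg.Agent.LieClassical.OrthFinite
open Cfsg.Agent.LieClassical.OrthSimple Cfsg.Agent.LieClassical.OrthTrans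
open Cfsg.Agent.H377 Cfsg.Agent.H403.Classify Cfsg.Agent.H439.CC

/-! ### Orders -/

/-- `q ∣ Q ^ j - 1` iff the order of `Q` modulo `q` divides `j` -/
theorem dvd_pow_sub_iff {q Q : ℕ} [hq : Fact q.Prime] (hQ : 1 ≤ Q) (j : ℕ) :
    q ∣ Q ^ j - 1 ↔ orderOf (Q : ZMod q) ∣ j := by
  have h1 : 1 ≤ Q ^ j := Nat.one_le_pow _ _ hQ
  rw [orderOf_dvd_iff_pow_eq_one, ← Nat.cast_pow, ← sub_eq_zero]
  have : ((Q ^ j : ℕ) : ZMod q) - 1 = ((Q ^ j - 1 : ℕ) : ZMod q) := by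
    rw [Nat.cast_sub h1, Nat.cast_one]
  rw [this, ZMod.natCast_eq_zero_iff]

/-- `q ∣ Q ^ k + 1` if the order is `2k` -/
theorem dvd_add_of_order {q Q : ℕ} [hq : Fact q.Prime] (hQ : 1 ≤ Q) {k : ℕ} (hk : 1 ≤ k)
    (h : orderOf (Q : ZMod q) = 2 * k) : q ∣ Q ^ k + 1 := by
  have h1 : 1 ≤ Q ^ k := Nat.one_le_pow _ _ hQ
  have h2 : q ∣ Q ^ (2 * k) - 1 := (dvd_pow_sub_iff hQ _).2 h.dvd
  have h3 : ¬ q ∣ Q ^ k - 1 := by
    rw [dvd_pow_sub_iff hQ, h]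
    intro h4
    have := Nat.le_of_dvd (by omega) h4
    omega
  have h4 : Q ^ (2 * k) - 1 = (Q ^ k - 1) * (Q ^ k + 1) := by
    rw [mul_comm 2 k, pow_mul, pow_two, mul_comm (Q ^ k - 1), ← Nat.mul_self_sub_mul_self_eq, mul_one]
  rw [h4] at h2
  exact ((hq.out.dvd_mul).1 h2).resolve_left h3

section

variable {F : Type*} [Field F] [Finite F]

theorem order_le {V : Type*} [AddCommGroup V] [Module F V] [Finite V] {q : ℕ} [hq : Fact q.Prime]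
    (hqF : ¬ q ∣ Nat.card F) {x : V ≃ₗ[F] V} (hx : x ^ q = 1)
    (hx1 : x ≠ 1) : orderOf (Nat.card F : ZMod q) ≤ finrank F V := by
  obtain ⟨j, h1, h2, h3⟩ := exists_pow_of_order hq.out hqF hx hx1
  rw [dvd_pow_sub_iff Nat.card_pos] at h3
  exact (Nat.le_of_dvd h1 h3).trans h2

/-- **(B) odd dimension** -/
theorem blk_odd (h2 : (2 : F) ≠ 0) {m q : ℕ} [hq : Fact q.Prime] (hqF : ¬ q ∣ Nat.card F)
    {x : (Unit ⊕ (Fin m ⊕ Fin m) → F) ≃ₗ[F] (Unit ⊕ (Fin m ⊕ Fin m) → F)} (hx : x ^ q = 1) (hx1 : x ≠ 1) {k : ℕ}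
    (hk : 1 ≤ k) (hd : orderOf (Nat.card F : ZMod q) = 2 * k) : ∃ y, Blk (oddForm m F) q (2 * k) y := by
  have h1 := order_le hqF hx hx1
  rw [Module.finrank_fintype_fun_eq_card, hd] at h1
  simp only [Fintype.card_sum, Fintype.card_fin, Fintype.card_unit] at h1
  exact exists_blk_odd h2 hk (by omega) hq.out (dvd_add_of_order Nat.card_pos hk hd)

/-- **(B) minus type** -/
theorem blk_minus {m q : ℕ} [hq : Fact q.Prime] (hqF : ¬ q ∣ Nat.card F)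
    {x : ((Fin m ⊕ Fin m) ⊕ Fin 2 → F) ≃ₗ[F] ((Fin m ⊕ Fin m) ⊕ Fin 2 → F)} (hx : x ^ q = 1) (hx1 : x ≠ 1) {k : ℕ}
    (hk : 1 ≤ k) (hd : orderOf (Nat.card F : ZMod q) = 2 * k) {a b : F}
    (hab : ∀ z₁ z₂ : F, z₁ ^ 2 + a * z₁ * z₂ + b * z₂ ^ 2 = 0 → z₁ = 0 ∧ z₂ = 0) :
    ∃ y, Blk (minusForm m F a b) q (2 * k) y := by
  have h1 := order_le hqF hx hx1
  rw [Module.finrank_fintype_fun_eq_card, hd] at h1
  simp only [Fintype.card_sum, Fintype.card_fin] at h1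
  exact exists_blk_minus hk (by omega) hq.out (dvd_add_of_order Nat.card_pos hk hd) hab

end

/-! ### The transfer -/

section

open Cfsg.Agent.TitsThree Cfsg.Agent.TitsThree.KSideO Cfsg.Agent.TitsThree.WittFrame
  Cfsg.Agent.TitsThree.WBridge Cfsg.Agent.TitsThree.FrameCN Cfsg.Agent.TitsThree.SiegelGen Cfsg.Agent.TitsThree.Siegel

variable {F : Type*} [Field F] [Finite F] {ι : Type} [Fintype ι] [DecidableEq ι] {Q : QuadraticForm F (ι → F)}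

/-- **(D)** for `E Q` -/
theorem qElt_E (hQ : Nondeg Q) (h5 : 5 ≤ Fintype.card ι) {q : ℕ} (hq : q.Prime) (hq2 : q ≠ 2)
    (Adm : Submodule F (ι → F) → Prop) {N : ℕ} (Q₀ : Subgroup ((ι → F) ≃ₗ[F] (ι → F))) (h1 : IsPGroup q Q₀)
    (hc : ∀ x ∈ Q₀, ∀ y ∈ Q₀, x * y = y * x) (hi : ∀ x ∈ Q₀, ∀ v, Q (x v) = Q v)
    (hPF : ¬ PF Adm (Q₀ : Set ((ι → F) ≃ₗ[F] (ι → F))) (dig N) ⊥) : QElt Adm (E Q).subtype q N := by
  have hle : Q₀ ≤ E Q := by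
    intro x hx
    obtain ⟨k, hk⟩ := h1 ⟨x, hx⟩
    exact mem_E_of_odd hQ h5 (hi x hx) ((hq.odd_of_ne_two hq2).pow (n := k)) (congrArg Subtype.val hk)
  have hmap : ((E Q).subtype '' (Q₀.subgroupOf (E Q) : Set (E Q))) = (Q₀ : Set ((ι → F) ≃ₗ[F] (ι → F))) := by
    ext x
    constructor
    · rintro ⟨y, hy, rfl⟩
      exact hy
    · intro hx
      exact ⟨⟨x, hle hx⟩, hx, rfl⟩
  refine ⟨Q₀.subgroupOf (E Q), ?_, ?_, ?_⟩
  · exact h1.of_equiv (Subgroup.subgroupOfEquivOfLe hle).symm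
  · intro x hx y hy
    exact Subtype.ext (hc x.1 hx y.1 hy)
  · rw [hmap]
    exact hPF

/-- **(D)** for the model -/
theorem qElt_of_isom {m : ℕ} (W : WFrame (PO Q) m) (hG : Good Q) (hp : ∃ p : (toFrame W).Adm, p.c ≠ 0)
    (hQ : Nondeg Q) (h5 : 5 ≤ Fintype.card ι) {q : ℕ} (hq : q.Prime) (hq2 : q ≠ 2)
    (Adm : Submodule F (ι → F) → Prop) {N : ℕ} (Q₀ : Subgroup ((ι → F) ≃ₗ[F] (ι → F))) (h1 : IsPGroup q Q₀)
    (hc : ∀ x ∈ Q₀, ∀ y ∈ Q₀, x * y = y * x) (hi : ∀ x ∈ Q₀, ∀ v, Q (x v) = Q v)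
    (hPF : ¬ PF Adm (Q₀ : Set ((ι → F) ≃ₗ[F] (ι → F))) (dig N) ⊥) :
    QElt Adm (KSideO.model W hG hp).I.subtype q N :=
  qElt_E hQ h5 hq hq2 Adm Q₀ h1 hc hi hPF

/-- isometries of the polar form (characteristic `≠ 2`) -/
theorem isom_of_polar (h2 : (2 : F) ≠ 0) {x : (ι → F) ≃ₗ[F] (ι → F)}
    (h : ∀ v w, (HO Q).h (x v) (x w) = (HO Q).h v w) (v : ι → F) : Q (x v) = Q v := by
  have h1 := h v v
  rw [HO_h, HO_h, Cfsg.Agent.H377.polar_self', Cfsg.Agent.H377.polar_self'] at h1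
  exact mul_left_cancel₀ h2 h1

theorem polar_of_isom {x : (ι → F) ≃ₗ[F] (ι → F)} (h : ∀ v, Q (x v) = Q v) (v w : ι → F) :
    (HO Q).h (x v) (x w) = (HO Q).h v w := by
  rw [HO_h, HO_h, polar, polar, ← map_add, h, h, h]

end

end Cfsg.Agent.H394.CC
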